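import Mathlib
import Cfsg.Agent.H364.Iso3
import Cfsg.Agent.H364.UnitaryP
import Cfsg.Agent.OrdDiv.Table
import Cfsg.Agent.S0000
import Cfsg.Agent.S0811
import Cfsg.Agent.S0815
import Cfsg.Agent.ChevalleyStructure.FieldIso
import Cfsg.Agent.ChevalleyStructure.NineField

/-!
# Groups of order 12096 without elements of order 9, 14, 21 (helper364)
-/

set_option autoImplicit false

namespace Cfsg.Agent.H364.GTwo

open Subgroup Cfsg Cfsg.Agent.H364 Cfsg.Agent.H364.Unitary Cfsg.Agent.OrdDiv

section psu

variable {K : Type*} [Field K] [Fintype K]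

theorem charP_three (hK : Fintype.card K = 3 ^ 2) : CharP K 3 := by
  obtain ⟨p, hchar⟩ := CharP.exists K
  have hp : Fact p.Prime := ⟨CharP.char_is_prime K p⟩
  obtain ⟨m, hm, hcard⟩ := FiniteField.card K p
  rw [hK] at hcard
  have h1 : p ∣ 3 ^ 2 := by rw [hcard]; exact dvd_pow_self p m.ne_zero
  have h2 : p ∣ 3 := hm.dvd_of_dvd_pow h1
  have h3 : p = 3 := (Nat.prime_dvd_prime_iff_eq hm Nat.prime_three).1 h2
  subst h3
  exact hchar

theorem psu33_seven (hK : Fintype.card K = 3 ^ 2) (x : PSU 3 K 3) (h : 7 ∣ orderOf x) : orderOf x ∣ 7 := by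
  have hchar := charP_three hK
  have h1 : ((7 : ℕ) : K) ≠ 0 := by
    rw [Ne, CharP.cast_eq_zero_iff K 3]
    norm_num
  have h2 : orderOf (-((3 : ℕ) : ZMod 7)) = 3 := by
    have : Fact (Nat.Prime 3) := ⟨Nat.prime_three⟩
    exact orderOf_eq_prime (by decide) (by decide)
  have h3 := psu_orderOf_dvd (F := K) (n := 3) (q := 3) hK (r := 7) (by norm_num) h1 (by norm_num) le_rfl h2 h
  have h4 : (sg 3 3).natAbs / Nat.gcd 3 (3 + 1) = 7 := by decide
  rwa [h4] at h3

theorem psu33_nine (hK : Fintype.card K = 3 ^ 2) (x : PSU 3 K 3) : orderOf x ≠ 9 := by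
  intro h
  have hchar := charP_three hK
  have : Fact (Nat.Prime 3) := ⟨Nat.prime_three⟩
  have h1 := psu_pow_eq_one (F := K) (n := 3) (q := 3) hK le_rfl 3 (c := 1) (by norm_num) (x := x) (j := 2)
    (by rw [h]; norm_num)
  have h2 := orderOf_dvd_of_pow_eq_one h1
  rw [h] at h2
  norm_num at h2

end psu

/-- Conjugation on a normal subgroup with trivial centralizer is faithful. -/
theorem conjNormal_injective {G : Type*} [Group G] {N : Subgroup G} [N.Normal] (h : centralizer (N : Set G) = ⊥) :
    Function.Injective (MulAut.conjNormal : G →* MulAut N) := by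
  rw [injective_iff_map_eq_one]
  intro g hg
  have h1 : g ∈ centralizer (N : Set G) := by
    rw [Subgroup.mem_centralizer_iff]
    intro x hx
    have h2 : (MulAut.conjNormal g : MulAut N) ⟨x, hx⟩ = ⟨x, hx⟩ := by rw [hg]; rfl
    have h3 : g * x * g⁻¹ = x := by
      have := congrArg Subtype.val h2
      rwa [MulAut.conjNormal_apply] at this
    exact (mul_inv_eq_iff_eq_mul.1 h3).symm
  rw [h, Subgroup.mem_bot] at h1
  exact h1

/-- If `|G| = |Aut N|` then `G ≃* Aut N`. -/
theorem exists_equiv_mulAut {G : Type*} [Group G] [Finite G] {N : Subgroup G} [N.Normal]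
    (h : centralizer (N : Set G) = ⊥) (hc : Nat.card (MulAut N) = Nat.card G) : Nonempty (G ≃* MulAut N) := by
  have hinj := conjNormal_injective h
  have hfin : Finite (MulAut N) := Nat.finite_of_card_ne_zero (by rw [hc]; exact Nat.card_pos.ne')
  have hbij : Function.Bijective (MulAut.conjNormal : G →* MulAut N) := by
    rw [Nat.bijective_iff_injective_and_card]
    exact ⟨hinj, hc.symm⟩
  exact ⟨MulEquiv.ofBijective _ hbij⟩

theorem cands_eq : cands [(2,6),(3,3),(7,1)] 12096 = [.psl 3 2, .psl 2 8, .psl 2 7, .psu 3 3] := by decide +kernel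

abbrev F9 := Cfsg.Agent.ChevalleyStructure.NineField.F9

theorem card_mulAut {K : Type*} [Field K] [Fintype K] (hK : Fintype.card K = 3 ^ 2) :
    Nat.card (MulAut (PSU 3 K 3)) = 2 * Nat.card (PSU 3 K 3) := by
  have : Fact (Nat.Prime 3) := ⟨Nat.prime_three⟩
  have h := Cfsg.Agent.S0815.result (F := K) 3 1 le_rfl (q := 3) (by norm_num) hK 3 le_rfl (by norm_num)
  rw [h]
  norm_num

/-- The characterisation. -/
theorem main {G : Type*} [Group G] [Finite G] (hG : Nat.card G = 12096) (h2 : NoEdge G 7 2) (h3 : NoEdge G 7 3)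
    (h9 : ∀ x : G, orderOf x ≠ 9) : Nonempty (G ≃* MulAut (PSU 3 F9 3)) := by
  have h7 : Fact (Nat.Prime 7) := ⟨by norm_num⟩
  obtain ⟨y, hy⟩ := exists_prime_orderOf_dvd_card' (G := G) 7 (by rw [hG]; norm_num)
  have hI : Isol G (zpowers y) 7 := by
    refine ⟨inferInstance, by rw [Nat.card_zpowers, hy], by rw [hG]; norm_num, ?_⟩
    intro r s hr hs hr7 hs7
    have hr' : r = 7 := (Nat.prime_dvd_prime_iff_eq hr (by norm_num)).1 hr7
    subst hr'
    intro x hx
    have h4 : s ∣ 12096 := by
      rw [← hG]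
      exact (Dvd.intro_left _ hx.symm).trans (orderOf_dvd_natCard x)
    have h5 : s ∣ 2 ^ 6 * (3 ^ 3 * 7) := by norm_num; exact h4
    rcases (Nat.Prime.dvd_mul hs).1 h5 with h6 | h6
    · have h7 : s = 2 := (Nat.prime_dvd_prime_iff_eq hs Nat.prime_two).1 (hs.dvd_of_dvd_pow h6)
      subst h7; exact h2 x hx
    · rcases (Nat.Prime.dvd_mul hs).1 h6 with h7 | h7
      · have h8 : s = 3 := (Nat.prime_dvd_prime_iff_eq hs Nat.prime_three).1 (hs.dvd_of_dvd_pow h7)
        subst h8; exact h3 x hx
      · exact hs7 h7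
  obtain ⟨K, hKn, n, hKm, hparts, hnr, hcases⟩ := hI.struct (by norm_num) (by norm_num)
  have hn6 : n = 6 := by
    obtain ⟨h4, h5⟩ := hnr 7 (by norm_num) dvd_rfl
    rw [hG] at h5
    have h6 : n ≤ 6 := Nat.le_of_dvd (by norm_num) h4
    have h7 : n % 7 = 6 := by
      have : (12096 / 7) % 7 = n % 7 := h5
      norm_num at this
      omega
    omega
  subst hn6
  have hGK : Nat.card K * Nat.card (G ⧸ K) = 12096 := by
    rw [← hG, ← Subgroup.card_mul_index K, Subgroup.index_eq_card]
  have hKd : Nat.card K ∣ 12096 := Dvd.intro _ hGK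
  have hK3 : ¬ 3 ∣ Nat.card K := by
    intro h4
    have h5 := hparts 3 Nat.prime_three
    have h6 : (Nat.card K).factorization 3 ≤ 3 := by
      have h7 : 3 ^ (Nat.card K).factorization 3 ∣ 12096 := (Nat.ordProj_dvd _ 3).trans hKd
      by_contra h8
      have h9 : 3 ^ 4 ∣ 12096 := (pow_dvd_pow 3 (by omega)).trans h7
      norm_num at h9
    have h7 : 1 ≤ (Nat.card K).factorization 3 := Nat.prime_three.factorization_pos_of_dvd Nat.card_pos.ne' h4
    interval_cases (Nat.card K).factorization 3 <;> norm_num at h5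
  rcases hcases with h4 | ⟨N, hNn, hNs, hNna, hNc, hN7, n', hn', hidx⟩
  · exfalso
    rw [hG] at h4
    apply hK3
    have : Nat.card K = 288 := by omega
    rw [this]; norm_num
  · have hN : Nat.card N * N.index = Nat.card (G ⧸ K) := Subgroup.card_mul_index N
    have hNd : Nat.card N ∣ 12096 := by
      rw [← hGK, ← hN]
      exact (Dvd.intro _ rfl).trans (Dvd.intro_left _ rfl)
    obtain ⟨g, hg, hreal, hord⟩ := exists_good table (Cfsg.Agent.S0000.result (G := N)) hNna
      (l := [(2,6),(3,3),(7,1)]) (by decide +kernel) hNd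
    have hidx3 : N.index ≤ 3 := by
      have h5 : N.index ≠ 0 := Subgroup.index_ne_zero_of_finite
      by_contra h6
      have : 2 * 4 ≤ n' * N.index := Nat.mul_le_mul hn' (by omega)
      omega
    rw [← hN] at hGK
    rw [cands_eq] at hg
    simp only [List.mem_cons, List.not_mem_nil, or_false] at hg
    have hsmall : ∀ a : ℕ, Nat.card N = a → a = 168 → False := by
      rintro a ha rfl
      rw [ha] at hGK
      have h5 : Nat.card K * N.index = 72 := by nlinarith
      have h6 : 3 ∣ N.index := by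
        have : (3 : ℕ) ∣ Nat.card K * N.index := by rw [h5]; norm_num
        exact (Nat.Prime.dvd_mul Nat.prime_three).1 this |>.resolve_left hK3
      obtain ⟨c, hc⟩ := h6
      have hc1 : c ≤ 1 := by omega
      have hc0 : c = 1 := by
        interval_cases c
        · rw [hc] at h5; omega
        · rfl
      subst hc0
      rw [hc] at h5
      apply hK3
      have : Nat.card K = 24 := by omega
      rw [this]; norm_num
    rcases hg with rfl | rfl | rfl | rfl
    · exact (hsmall _ hord (by decide +kernel)).elim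
    · -- L2(8)
      exfalso
      obtain ⟨F, _, _, hF, ⟨e⟩⟩ := hreal
      obtain ⟨H, -, ⟨f⟩⟩ := Cfsg.Agent.S0811.result (F := F) hF (by decide)
      have h5 : orderOf (f.symm (DihedralGroup.r 1)) = 9 := by
        rw [MulEquiv.orderOf_eq, DihedralGroup.orderOf_r_one]
        norm_num
      have h6 : orderOf (e.symm (f.symm (DihedralGroup.r 1) : H)) = 9 := by
        rw [MulEquiv.orderOf_eq, Subgroup.orderOf_coe, h5]
      obtain ⟨z, hz⟩ := exists_orderOf_lift (QuotientGroup.mk' K) (QuotientGroup.mk'_surjective K)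
        ((e.symm (f.symm (DihedralGroup.r 1) : H) : N) : G ⧸ K)
      rw [Subgroup.orderOf_coe, h6] at hz
      exact h9 z hz
    · exact (hsmall _ hord (by decide +kernel)).elim
    · -- U3(3)
      obtain ⟨F, _, _, hF, ⟨e⟩⟩ := hreal
      have hord' : Nat.card N = 6048 := hord.trans (by decide +kernel)
      rw [hord'] at hGK
      have h5 : Nat.card K * N.index = 2 := by nlinarith
      have hK1 : Nat.card K = 1 := by
        have h6 : Nat.card K ∣ 2 := Dvd.intro _ h5
        rcases (Nat.dvd_prime Nat.prime_two).1 h6 with h7 | h7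
        · exact h7
        · exfalso
          have h8 := hparts 2 Nat.prime_two
          rw [h7, Nat.Prime.factorization_self Nat.prime_two] at h8
          norm_num at h8
      have hKbot : K = ⊥ := Subgroup.card_eq_one.1 hK1
      have hcardF9 : Fintype.card F9 = 3 ^ 2 := Cfsg.Agent.ChevalleyStructure.NineField.F9.card_F9
      have φ : F ≃+* F9 := FiniteField.ringEquivOfCardEq (hF.trans hcardF9.symm)
      have e2 : N ≃* PSU 3 F9 3 := e.trans (Cfsg.Agent.ChevalleyStructure.FieldIso.PSUEquiv 3 3 φ)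
      have h6 : Nat.card (MulAut N) = Nat.card (G ⧸ K) := by
        rw [Nat.card_congr (MulAut.congr e2).toEquiv, card_mulAut hcardF9, ← Nat.card_congr e2.toEquiv, hord',
          ← hN, hord']
        rw [hK1, one_mul] at h5
        rw [h5]
      obtain ⟨e3⟩ := exists_equiv_mulAut hNc h6
      subst hKbot
      exact ⟨(QuotientGroup.quotientBot.symm.trans e3).trans (MulAut.congr e2)⟩

end Cfsg.Agent.H364.GTwo
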